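import Cfsg.Agent.H125.Hall.Defs
import Cfsg.Agent.H454.FinePsl

/-!
# S2223, ALS2: the inequality for `PSL_n(q)`, `n ≥ 3`, `q` odd (helper16)

* `bd_pr` : the lower bounds `Bd` apply to the projective representations `PR` of helper125;
* `als_psl`.
-/

set_option autoImplicit false

namespace Cfsg.Agent.H16.Hall

open Matrix Cfsg.Agent.H125.Hall

/-- The lower bounds `Bd` apply if the Schur multiplier has order prime to `r`. -/
theorem bd_pr {T : Type} [Group T] [Finite T] [IsSimpleGroup T] {r d m : ℕ} (hrT : r ∣ Nat.card T)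
    {A : Type*} [CommGroup A] (hM : Cfsg.HasSchurMultiplier T A) (hA : (Nat.card A).Coprime r)
    (hB : ∀ (F : Type) [Field F], (r : F) ≠ 0 → Cfsg.Agent.H912.Bd.Bd F r d T) (h : PR m T) : d ≤ m := by
  obtain ⟨k, _, P, _, _, π, ρ, h1, h2, h3, h4, h5⟩ := h
  have hr : (r : k) ≠ 0 := by
    obtain ⟨c, hc⟩ := hrT
    rw [hc, Nat.cast_mul] at h5
    exact left_ne_zero_of_mul h5
  refine hB k hr m ⟨P, inferInstance, π, ρ, h1, ?_, Cfsg.Agent.H698.ker_coprime hM hA π h1 h2 h3, ?_⟩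
  · intro x hx y
    exact ((Subgroup.mem_center_iff.1 (h2 hx)) y).symm
  · have h6 : (ρ.ker.map π).Normal := Subgroup.Normal.map inferInstance π h1
    rcases h6.eq_bot_or_eq_top with h7 | h7
    · rwa [Subgroup.map_eq_bot_iff] at h7
    · exfalso
      apply h4
      -- `P = ker ρ · ker π`, so `ρ P` is abelian and perfect
      have h8 : ∀ x : P, ∃ z ∈ Subgroup.center P, ρ x = ρ z := by
        intro x
        have h9 : π x ∈ ρ.ker.map π := by rw [h7]; trivial
        obtain ⟨y, hy, hyx⟩ := h9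
        refine ⟨y⁻¹ * x, h2 ?_, ?_⟩
        · rw [MonoidHom.mem_ker, map_mul, map_inv, hyx, inv_mul_cancel]
        · rw [map_mul, map_inv, (MonoidHom.mem_ker).1 hy, inv_one, one_mul]
      have h9 : commutator P ≤ ρ.ker := by
        rw [commutator_def, Subgroup.commutator_le]
        intro x _ y _
        rw [MonoidHom.mem_ker, map_commutatorElement, commutatorElement_eq_one_iff_mul_comm]
        obtain ⟨z, hz, hxz⟩ := h8 x
        rw [hxz, ← map_mul, ← map_mul, Subgroup.mem_center_iff.1 hz y]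
      rw [h3] at h9
      ext1 x
      exact h9 (Subgroup.mem_top x)

section num

theorem prod_le_pow (q k : ℕ) : (∏ i ∈ Finset.range k, (q ^ (i + 2) - 1)) ^ 2 ≤ q ^ (k * (k + 3)) := by
  induction k with
  | zero => simp
  | succ k ih =>
    rw [Finset.prod_range_succ, mul_pow]
    calc _ ≤ q ^ (k * (k + 3)) * (q ^ (k + 2)) ^ 2 := Nat.mul_le_mul ih (Nat.pow_le_pow_left (Nat.sub_le _ _) 2)
      _ = q ^ (k * (k + 3) + (k + 2) * 2) := by rw [← pow_mul, ← pow_add]
      _ = _ := by congr 1; ring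

theorem prod_eq (q k : ℕ) : ∏ i : Fin (k + 1), (q ^ (k + 1) - q ^ (i : ℕ)) =
    (q - 1) * (q ^ k * (∏ i ∈ Finset.range k, q ^ i) * ∏ i ∈ Finset.range k, (q ^ (i + 2) - 1)) := by
  have h1 : ∏ i : Fin (k + 1), (q ^ (k + 1) - q ^ (i : ℕ)) = ∏ i ∈ Finset.range (k + 1), (q ^ (k + 1) - q ^ i) :=
    Fin.prod_univ_eq_prod_range (fun i => q ^ (k + 1) - q ^ i) (k + 1)
  rw [h1, Finset.prod_range_succ]
  have h2 : q ^ (k + 1) - q ^ k = (q - 1) * q ^ k := by
    rw [pow_succ, Nat.sub_mul, one_mul, mul_comm]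
  have h3 : ∏ i ∈ Finset.range k, (q ^ (k + 1) - q ^ i) =
      (∏ i ∈ Finset.range k, q ^ i) * ∏ i ∈ Finset.range k, (q ^ (i + 2) - 1) := by
    rw [← Finset.prod_range_reflect (fun i => q ^ (i + 2) - 1), ← Finset.prod_mul_distrib]
    refine Finset.prod_congr rfl fun i hi => ?_
    rw [Finset.mem_range] at hi
    rw [Nat.mul_sub, mul_one, ← pow_add]
    congr 2
    omega
  rw [h2, h3]
  ring

theorem le_two_pow_half (s : ℕ) (hs : 1 ≤ s) : 2 * s + 1 ≤ 2 ^ (s + 1) := by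
  induction s, hs using Nat.le_induction with
  | base => norm_num
  | succ n hn ih =>
    rw [pow_succ]
    omega

theorem num4 {n s : ℕ} (hn : 4 ≤ n) (hs : 1 ≤ s) : n * (n + 1) * (s + 1) + 7 ≤ 3 * (2 * s + 1) ^ (n - 1) := by
  induction n, hn using Nat.le_induction with
  | base =>
    obtain ⟨t, rfl⟩ : ∃ t, s = t + 1 := ⟨s - 1, by omega⟩
    have h1 : 3 * (2 * (t + 1) + 1) ^ (4 - 1) = 4 * (4 + 1) * (t + 1 + 1) + 7 +
        (24 * t ^ 3 + 108 * t ^ 2 + 142 * t + 34) := by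
      norm_num
      ring
    rw [h1]
    exact Nat.le_add_right _ _
  | succ n hn ih =>
    have e : (2 * s + 1) ^ (n + 1 - 1) = (2 * s + 1) * (2 * s + 1) ^ (n - 1) := by
      rw [← pow_succ']; congr 1; omega
    rw [e]
    have h1 : 2 * (3 * (2 * s + 1) ^ (n - 1)) ≤ (2 * s + 1) * (3 * (2 * s + 1) ^ (n - 1)) :=
      Nat.mul_le_mul_right _ (by omega)
    have h2 : (n + 1) * (n + 2) ≤ 2 * (n * (n + 1)) := by nlinarith
    have h3 : (n + 1) * (n + 2) * (s + 1) ≤ 2 * (n * (n + 1)) * (s + 1) := Nat.mul_le_mul_right _ h2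
    have h4 : (n + 1) * (n + 1 + 1) * (s + 1) = (n + 1) * (n + 2) * (s + 1) := by ring
    rw [h4]
    nlinarith

theorem num3 {n s : ℕ} (hn : 3 ≤ n) (hs : 1 ≤ s) (h : ¬ (n = 3 ∧ s = 1)) :
    n * (n + 1) * (s + 1) + 7 ≤ 3 * (2 * s + 1) ^ (n - 1) := by
  rcases (by omega : n = 3 ∨ 4 ≤ n) with rfl | h4
  · have : 2 ≤ s := by omega
    norm_num
    nlinarith
  · exact num4 h4 hs

end num

/-- The bound for the 2-part of `|Aut PSL_n(q)|`. -/
theorem two_pow_v2_le {F : Type} [Field F] [Fintype F] (hodd : Odd (Fintype.card F)) {k : ℕ} (hk : 2 ≤ k) :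
    2 ^ v2 (ProjectiveSpecialLinearGroup (Fin (k + 1)) F) ≤
      Fintype.card F * ∏ i ∈ Finset.range k, (Fintype.card F ^ (i + 2) - 1) := by
  obtain ⟨p, f, hp, hf, hchar, hF⟩ := Cfsg.Agent.H454.FinePsl.charP_of_card (F := F)
  have hpf : Fact p.Prime := ⟨hp⟩
  have hA := Cfsg.Agent.S0813.result p f hf hF (k + 1) (by omega) (by omega)
  rw [if_neg (by omega)] at hA
  have hq1 : 1 < Fintype.card F := Fintype.one_lt_card
  have h1 := Cfsg.Agent.S0265.card_GL_eq_PGL (F := F) (n := k + 1) (by omega)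
  rw [Matrix.card_GL_field, prod_eq, Nat.card_units, Nat.card_eq_fintype_card] at h1
  have h2 := Nat.eq_of_mul_eq_mul_left (by omega) h1
  rw [v2, hA, ← h2]
  have h3 : 2 * f ≤ Fintype.card F := by
    rw [hF]
    exact Cfsg.Agent.H454.FineAux.two_f_le hp.two_le hf
  generalize hqq : Fintype.card F = q at *
  obtain ⟨E, hE⟩ : ∃ E, E = ∏ i ∈ Finset.range k, (q ^ (i + 2) - 1) := ⟨_, rfl⟩
  have hE0 : 0 < E := by
    rw [hE]
    refine Finset.prod_pos fun i _ => ?_
    have : 1 < q ^ (i + 2) := Nat.one_lt_pow (by omega) hq1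
    omega
  rw [← hE]
  have hqo : Odd (q ^ k * ∏ i ∈ Finset.range k, q ^ i) := by
    refine (hodd.pow).mul ?_
    rw [Finset.prod_pow_eq_pow_sum]
    exact hodd.pow
  obtain ⟨D, hD⟩ : ∃ D, D = q ^ k * ∏ i ∈ Finset.range k, q ^ i := ⟨_, rfl⟩
  rw [← hD] at hqo ⊢
  have h4 : 2 ^ (2 * f * (D * E)).factorization 2 ∣ 2 * f * E := by
    have h5 : 2 ^ (2 * f * (D * E)).factorization 2 ∣ 2 * f * (D * E) := Nat.ordProj_dvd _ _
    have h6 : 2 * f * (D * E) = D * (2 * f * E) := by ring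
    rw [h6] at h5
    rw [h6]
    exact (Nat.Coprime.pow_left _ (Nat.coprime_two_left.2 hqo)).dvd_of_dvd_mul_left h5
  refine (Nat.le_of_dvd (by positivity) h4).trans ?_
  exact Nat.mul_le_mul_right _ h3

theorem als_psl {F : Type} [Field F] [Fintype F] (hodd : Odd (Fintype.card F)) {n : ℕ} (hn : 3 ≤ n) :
    ALS (Matrix.ProjectiveSpecialLinearGroup (Fin n) F) := by
  intro m hPR
  obtain ⟨p, f, hp, hf, hchar, hF⟩ := Cfsg.Agent.H454.FinePsl.charP_of_card (F := F)
  have hpf : Fact p.Prime := ⟨hp⟩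
  have hs : IsSimpleGroup (ProjectiveSpecialLinearGroup (Fin n) F) := Cfsg.Agent.S0249.result n hn
  have hq1 : 1 < Fintype.card F := Fintype.one_lt_card
  have hq3 : 3 ≤ Fintype.card F := by
    obtain ⟨s, hs⟩ := hodd
    omega
  have hpq : ¬ p ∣ Fintype.card F - 1 := by
    intro h
    have h4 := (Nat.dvd_sub_iff_right (by omega : 1 ≤ Fintype.card F) (by rw [hF]; exact dvd_pow_self p (by omega))).1 h
    exact hp.one_lt.ne' (Nat.dvd_one.1 h4)
  -- the degree
  have hm : Fintype.card F ^ (n - 1) - 1 ≤ m := by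
    refine bd_pr (r := p) ?_ (Cfsg.Agent.S2086.result rfl n (by omega) (by omega) ?_) ?_ ?_ hPR
    · exact Cfsg.Agent.H454.FinePsl.dvd_card rfl (by omega) hp (by rw [hF]; exact dvd_pow_self p (by omega))
    · simp only [Set.mem_insert_iff, Set.mem_singleton_iff, Prod.mk.injEq, not_or]
      obtain ⟨s, hs⟩ := hodd
      omega
    · rw [Nat.card_congr Multiplicative.toAdd, Nat.card_zmod]
      exact (Nat.Coprime.symm ((Nat.Prime.coprime_iff_not_dvd hp).2 fun h => hpq (h.trans (Nat.gcd_dvd_right _ _))))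
    · intro K _ hK
      exact Cfsg.Agent.H912.Bd.bd_psl (F := K) hp hK hn hchar
  obtain ⟨k, rfl⟩ : ∃ k, n = k + 1 := ⟨n - 1, by omega⟩
  rw [Nat.add_sub_cancel] at hm
  have hv := two_pow_v2_le hodd (k := k) (by omega)
  generalize hvv : v2 (ProjectiveSpecialLinearGroup (Fin (k + 1)) F) = v at *
  generalize hqq : Fintype.card F = q at *
  have hq2 : 9 ≤ q ^ k := by
    calc 9 = 3 ^ 2 := by norm_num
      _ ≤ 3 ^ k := Nat.pow_le_pow_right (by norm_num) (by omega)
      _ ≤ q ^ k := Nat.pow_le_pow_left hq3 k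
  -- the general inequality
  have hgen : ¬ (k = 2 ∧ q = 3) → 2 * v + 7 ≤ 3 * q ^ k := by
    intro h
    obtain ⟨s, rfl⟩ := hodd
    have h1 := num3 (n := k + 1) (s := s) (by omega) (by omega) (by omega)
    rw [Nat.add_sub_cancel] at h1
    refine le_trans ?_ h1
    have h2 : (2 ^ v) ^ 2 ≤ (2 ^ ((k + 1) * (k + 1 + 1) * (s + 1))) := by
      calc (2 ^ v) ^ 2 ≤ ((2 * s + 1) * ∏ i ∈ Finset.range k, ((2 * s + 1) ^ (i + 2) - 1)) ^ 2 :=
            Nat.pow_le_pow_left hv 2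
        _ = (2 * s + 1) ^ 2 * (∏ i ∈ Finset.range k, ((2 * s + 1) ^ (i + 2) - 1)) ^ 2 := by rw [mul_pow]
        _ ≤ (2 * s + 1) ^ 2 * (2 * s + 1) ^ (k * (k + 3)) := Nat.mul_le_mul_left _ (prod_le_pow _ _)
        _ = (2 * s + 1) ^ ((k + 1) * (k + 1 + 1)) := by rw [← pow_add]; congr 1; ring
        _ ≤ (2 ^ (s + 1)) ^ ((k + 1) * (k + 1 + 1)) := Nat.pow_le_pow_left (le_two_pow_half s (by omega)) _
        _ = _ := by rw [← pow_mul]; congr 1; ring
    rw [← pow_mul] at h2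
    have h3 := (Nat.pow_le_pow_iff_right (by norm_num : 1 < 2)).1 h2
    omega
  have h33 : k = 2 ∧ q = 3 → v ≤ 9 := by
    rintro ⟨rfl, rfl⟩
    simp only [Finset.prod_range_succ, Finset.prod_range_zero] at hv
    norm_num at hv
    by_contra hcon
    have : 2 ^ 10 ≤ 2 ^ v := Nat.pow_le_pow_right (by norm_num) (by omega)
    omega
  refine ⟨fun h => by omega, fun h => by omega, fun h => ?_, fun h => ?_⟩
  · by_cases h5 : k = 2 ∧ q = 3
    · have := h33 h5
      omega
    · have := hgen h5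
      omega
  · -- `q ^ k ≤ 28`
    have h6 : q ^ k ≤ 28 := by omega
    by_contra hcon
    have h7 : 2 ^ 17 ≤ 2 ^ v := Nat.pow_le_pow_right (by norm_num) (by omega)
    have hk3 : k ≤ 3 := by
      by_contra hk
      have : 3 ^ 4 ≤ q ^ k := (Nat.pow_le_pow_right (by norm_num) (by omega : 4 ≤ k)).trans (Nat.pow_le_pow_left hq3 k)
      omega
    rcases (by omega : k = 2 ∨ k = 3) with rfl | rfl
    · have : q ≤ 5 := by nlinarith
      simp only [Finset.prod_range_succ, Finset.prod_range_zero] at hv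
      interval_cases q <;> norm_num at hv <;> omega
    · have : q ≤ 3 := by
        by_contra hq4
        have : 4 ^ 3 ≤ q ^ 3 := Nat.pow_le_pow_left (by omega) 3
        omega
      simp only [Finset.prod_range_succ, Finset.prod_range_zero] at hv
      interval_cases q
      norm_num at hv
      omega

end Cfsg.Agent.H16.Hall
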